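import Cfsg.Agent.P8.JMain

/-! Centralizers and normalizers of the subgroups of odd prime order in Janko's group. -/

set_option autoImplicit false

namespace Cfsg.Agent.P8

open Subgroup Cfsg Cfsg.Agent Cfsg.Agent.FT

universe u

variable {G : Type u} [Group G] [Finite G]

theorem exists_sylow_eq {p : ℕ} [hp : Fact p.Prime] (h2 : ¬ p ^ 2 ∣ Nat.card G) {x : G}
    (hx : orderOf x = p) : ∃ P : Sylow p G, (P : Subgroup G) = zpowers x := by
  have h1 := H1.card_mul_relIndex (le_top : zpowers x ≤ ⊤)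
  rw [Nat.card_zpowers, hx, card_top] at h1
  exact IsSyl.exists_sylow_top hp.out ⟨le_top, isPGroup_of_card_prime ((Nat.card_zpowers x).trans hx),
    fun e => h2 (by rw [← h1, sq]; exact Nat.mul_dvd_mul_left p e)⟩

namespace JH

variable (h : JH G)
include h

theorem cent_eq_of_dvd {x : G} {p : ℕ} (hp : p.Prime) (h120 : ¬ p ∣ 120) (hx : orderOf x = p)
    (hd : 𝐨(𝐂[x]) ∣ 2 * p) : 𝐂[x] = zpowers x := by
  have h1 : ¬ 2 ∣ 𝐨(𝐂[x]) := fun e => by
    obtain ⟨v, hv, v2⟩ := exists_mem_orderOf_eq_prime Nat.prime_two e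
    have h2 := orderOf_dvd_card_of_mem (mem_cent1_comm.1 hv)
    rw [hx, h.card_cent (by rw [← pow_two, ← v2, pow_orderOf_eq_one]) fun e => by simp [e] at v2]
      at h2
    exact h120 h2
  refine (eq_of_le_of_card_ge (zpowers_le.2 (self_mem_cent1 x)) ?_).symm
  rw [Nat.card_zpowers, hx]
  exact Nat.le_of_dvd hp.pos ((Nat.Coprime.dvd_mul_left
    ((Nat.prime_two.coprime_iff_not_dvd.2 h1).symm)).1 hd)

variable [IsSimpleGroup G]

theorem seven {x : G} (hx : orderOf x = 7) : 𝐂[x] = zpowers x ∧ 𝐨(𝐍(zpowers x)) = 42 := by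
  have : Fact (Nat.Prime 7) := ⟨by norm_num⟩
  obtain ⟨P, hP⟩ := exists_sylow_eq (by rw [h.card]; norm_num) hx
  obtain ⟨-, -, h1, -, -, -, -, h2, -⟩ := sylow_counts h.card
  have h3 := card_normalizer_sylow P
  have h4 := h2 P
  rw [hP, cent_zpowers] at h4
  rw [hP, h1, h.card] at h3
  exact ⟨h.cent_eq_of_dvd (by norm_num) (by norm_num) hx h4, by omega⟩

theorem eleven {x : G} (hx : orderOf x = 11) : 𝐂[x] = zpowers x ∧ 𝐨(𝐍(zpowers x)) = 110 := by
  have : Fact (Nat.Prime 11) := ⟨by norm_num⟩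
  obtain ⟨P, hP⟩ := exists_sylow_eq (by rw [h.card]; norm_num) hx
  obtain ⟨-, -, -, h1, -, -, -, -, h2, -⟩ := sylow_counts h.card
  have h3 := card_normalizer_sylow P
  have h4 := h2 P
  rw [hP, cent_zpowers] at h4
  rw [hP, h1, h.card] at h3
  exact ⟨h.cent_eq_of_dvd (by norm_num) (by norm_num) hx h4, by omega⟩

theorem nineteen {x : G} (hx : orderOf x = 19) : 𝐂[x] = zpowers x ∧ 𝐨(𝐍(zpowers x)) = 114 := by
  have : Fact (Nat.Prime 19) := ⟨by norm_num⟩
  obtain ⟨P, hP⟩ := exists_sylow_eq (by rw [h.card]; norm_num) hx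
  obtain ⟨-, -, -, -, h1, -, -, -, -, h2⟩ := sylow_counts h.card
  have h3 := card_normalizer_sylow P
  have h4 := h2 P
  rw [hP, cent_zpowers] at h4
  rw [hP, h1, h.card] at h3
  exact ⟨h.cent_eq_of_dvd (by norm_num) (by norm_num) hx h4, by omega⟩

theorem three {x : G} (hx : orderOf x = 3) : 𝐨(𝐂[x]) = 30 ∧ 𝐨(𝐍(zpowers x)) = 60 := by
  obtain ⟨P, hP⟩ := exists_sylow_eq (by rw [h.card]; norm_num) hx
  obtain ⟨h1, -, -, -, -, h2, -⟩ := sylow_counts h.card
  have h3 := card_normalizer_sylow P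
  have h4 := h2 P
  rw [hP, cent_zpowers] at h4
  rw [hP, h1, h.card] at h3
  exact ⟨h4, by omega⟩

theorem five {x : G} (hx : orderOf x = 5) : 𝐨(𝐂[x]) ∣ 30 ∧ 𝐨(𝐍(zpowers x)) = 60 := by
  have : Fact (Nat.Prime 5) := ⟨by norm_num⟩
  obtain ⟨P, hP⟩ := exists_sylow_eq (by rw [h.card]; norm_num) hx
  obtain ⟨-, h1, -, -, -, -, h2, -⟩ := sylow_counts h.card
  have h3 := card_normalizer_sylow P
  have h4 := h2 P
  rw [hP, cent_zpowers] at h4
  rw [hP, h1, h.card] at h3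
  exact ⟨h4, by omega⟩

end JH

end Cfsg.Agent.P8
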